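import Cfsg.Agent.Lib.Helper65.PU.Grp

/-! S2672: existence of representatives in `GU_n(q)`. -/

set_option autoImplicit false

namespace Cfsg.Agent.Lib.Helper65.PU

open Polynomial Cfsg.Agent.Lib.Helper65.PR Cfsg.Agent.Lib.Helper50 Cfsg.Agent.Lib.Helper50.GUConj
  Cfsg.Agent.Lib.Helper50.Herm Cfsg.Agent.Lib.Helper50.CC

variable {K : Type*} [Field K] [Fintype K] {q n : ℕ}
set_option linter.unusedSectionVars false

theorem tw_X_pow_sub_C (σ : K →+* K) (m : ℕ) (hm : m ≠ 0) (c : K) (hc : c ≠ 0) :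
    tw σ (X ^ m - C c) = X ^ m - C (σ c)⁻¹ := by
  have hσ : σ c ≠ 0 := (map_ne_zero σ).mpr hc
  ext k
  rw [tw2_coeff, natDegree_X_pow_sub_C]
  simp only [coeff_sub, coeff_X_pow, coeff_C]
  rw [if_neg hm.symm, if_pos trivial, zero_sub, map_neg]
  by_cases hk0 : k = 0
  · subst hk0
    rw [revAt_le (Nat.zero_le _), Nat.sub_zero, if_pos rfl, if_neg hm, if_neg hm.symm, if_pos rfl]
    simp [inv_neg]
  · by_cases hkm : k = m
    · subst hkm
      rw [revAt_le le_rfl, Nat.sub_self, if_neg (Ne.symm hk0), if_pos rfl, if_pos rfl, if_neg hk0]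
      simp only [zero_sub, map_neg, sub_zero]
      exact inv_mul_cancel₀ (neg_ne_zero.mpr hσ)
    · rw [if_neg hkm, if_neg hk0]
      by_cases hle : k ≤ m
      · rw [revAt_le hle, if_neg (by omega), if_neg (by omega)]
        simp
      · rw [revAt_eq_self_of_lt (by omega), if_neg hkm, if_neg hk0]
        simp

theorem tw_pa (hK : Fintype.card K = q ^ 2) (r : ℕ) [Fact r.Prime] (ζ : K) (hζ1 : ζ ^ (q + 1) = 1)
    (a : ZMod r → ℕ) : tw (frobQ hK) (pa r ζ a) = pa r ζ a := by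
  unfold pa
  rw [tw_prod]
  refine Finset.prod_congr rfl (fun j _ => ?_)
  have hz : ζ ≠ 0 := by
    rintro rfl
    rw [zero_pow (by omega)] at hζ1
    exact zero_ne_one hζ1
  have h0 : ζ ^ j.val ≠ 0 := pow_ne_zero _ hz
  have h1 := tw_X_pow_sub_C (frobQ hK) 1 one_ne_zero _ h0
  rw [pow_one] at h1
  rw [tw_pow, h1, frobQ_apply]
  have h2 : ((ζ ^ j.val) ^ q)⁻¹ = ζ ^ j.val := by
    apply inv_eq_of_mul_eq_one_right
    rw [← pow_succ, ← pow_mul, mul_comm, pow_mul, hζ1, one_pow]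
  rw [h2]

theorem orderOf_conj' {G : Type*} [Group G] (z M : G) : orderOf (z * M * z⁻¹) = orderOf M := by
  rw [← MulAut.conj_apply]
  exact (MulAut.conj z).orderOf_eq M

theorem exists_pa' (hK : Fintype.card K = q ^ 2) (p : ℕ) [Fact p.Prime] [CharP K p] (r : ℕ)
    [Fact r.Prime] (hn : 1 ≤ n) {ζ : K} (hζ : IsPrimitiveRoot ζ r) (hζ1 : ζ ^ (q + 1) = 1)
    (a : ZMod r → ℕ) (ha : ∑ j, a j = n) :
    ∃ g : ↥(Cfsg.GU n K q), g ^ r = 1 ∧ (orderOf g.1).Coprime p ∧ g.1.1.charpoly = pa r ζ a := by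
  obtain ⟨M, h1, h2, h3⟩ := exists_pa r p hn hζ a ha
  obtain ⟨z, hz⟩ := gu_exists hK p M h2 (by rw [h3, tw_pa hK r ζ hζ1])
  refine ⟨⟨z * M * z⁻¹, hz⟩, Subtype.ext ?_, ?_, ?_⟩
  · show (z * M * z⁻¹) ^ r = 1
    rw [conj_pow, h1]
    group
  · show (orderOf (z * M * z⁻¹)).Coprime p
    rw [orderOf_conj']
    exact h2
  · show ((z * M * z⁻¹ : GL (Fin n) K) : Matrix (Fin n) (Fin n) K).charpoly = _
    rw [conj_charpoly]
    exact h3

theorem exists_typeB' (hK : Fintype.card K = q ^ 2) (p : ℕ) [Fact p.Prime] [CharP K p] (r : ℕ)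
    [Fact r.Prime] (hn : 1 ≤ n) (v : NU K q) (k : ℕ) (hk : n = r * k) :
    ∃ g : ↥(Cfsg.GU n K q), g ^ r = SG hK n v ∧ (orderOf g.1).Coprime p ∧
      g.1.1.charpoly = (X ^ r - C ((v : Kˣ) : K)) ^ k := by
  have hr : r.Prime := Fact.out
  obtain ⟨M, h1, h2, h3⟩ := exists_typeB r p hn ((v : Kˣ) : K) (Units.ne_zero _) k hk
  have h4 : ((((v : Kˣ) : K)) ^ q)⁻¹ = ((v : Kˣ) : K) := by
    apply inv_eq_of_mul_eq_one_right
    rw [← pow_succ, NU_pow]
  obtain ⟨z, hz⟩ := gu_exists hK p M h2 (by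
    rw [h3, tw_pow, tw_X_pow_sub_C _ r hr.ne_zero _ (Units.ne_zero _), frobQ_apply, h4])
  have h5 : M ^ r = S K n (v : Kˣ) := by
    apply Units.ext
    rw [Units.val_pow_eq_pow_val, h1, S_val]
  refine ⟨⟨z * M * z⁻¹, hz⟩, Subtype.ext ?_, ?_, ?_⟩
  · show (z * M * z⁻¹) ^ r = S K n (v : Kˣ)
    rw [conj_pow, h5, ← Matrix.GeneralLinearGroup.scalar_commute, mul_assoc, mul_inv_cancel, mul_one]
  · show (orderOf (z * M * z⁻¹)).Coprime p
    rw [orderOf_conj']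
    exact h2
  · show ((z * M * z⁻¹ : GL (Fin n) K) : Matrix (Fin n) (Fin n) K).charpoly = _
    rw [conj_charpoly]
    exact h3

end Cfsg.Agent.Lib.Helper65.PU
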