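import Cfsg.Agent.Lib.Helper65.PR.Main
import Cfsg.Agent.Lib.Helper50.CC.GU2
import Cfsg.Agent.Lib.Helper50.CC.TW1
import Cfsg.Agent.Lib.Helper50.CC.TW2
import Cfsg.Agent.S0783

/-! S2672: basic facts on `GU_n(q)` modulo scalars. -/

set_option autoImplicit false

namespace Cfsg.Agent.Lib.Helper65.PU

open Polynomial Cfsg.Agent.Lib.Helper65.PR Cfsg.Agent.Lib.Helper50 Cfsg.Agent.Lib.Helper50.GUConj
  Cfsg.Agent.Lib.Helper50.Herm Cfsg.Agent.Lib.Helper50.CC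

variable {K : Type*} [Field K] [Fintype K] {q n : ℕ}
set_option linter.unusedSectionVars false

/-- norm-one units -/
abbrev NU (K : Type*) [Field K] (q : ℕ) : Subgroup Kˣ := (powMonoidHom (q + 1) : Kˣ →* Kˣ).ker

theorem NU_pow (u : NU K q) : ((u : Kˣ) : K) ^ (q + 1) = 1 := by
  have h : (u : Kˣ) ^ (q + 1) = 1 := u.2
  rw [← Units.val_pow_eq_pow_val, h, Units.val_one]

theorem S_mem_GU (hK : Fintype.card K = q ^ 2) (u : NU K q) : S K n (u : Kˣ) ∈ Cfsg.GU n K q := by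
  rw [mem_GU_iff_dag hK, Matrix.GeneralLinearGroup.coe_scalar, dag_scalar, ← map_mul, ← pow_succ,
    NU_pow, map_one]

/-- scalars of `GU` -/
noncomputable def SG (hK : Fintype.card K = q ^ 2) (n : ℕ) : NU K q →* ↥(Cfsg.GU n K q) :=
  ((S K n).comp (NU K q).subtype).codRestrict _ (fun u => S_mem_GU hK u)

theorem SG_val (hK : Fintype.card K = q ^ 2) (u : NU K q) :
    ((SG hK n u : ↥(Cfsg.GU n K q)) : GL (Fin n) K) = S K n (u : Kˣ) := rfl

theorem SG_comm (hK : Fintype.card K = q ^ 2) (u : NU K q) (g : ↥(Cfsg.GU n K q)) :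
    Commute (SG hK n u) g := by
  apply Subtype.ext
  rw [Subgroup.coe_mul, Subgroup.coe_mul, SG_val]
  exact Matrix.GeneralLinearGroup.scalar_commute _ g.1

theorem SG_mem (hK : Fintype.card K = q ^ 2) (u : NU K q) :
    SG hK n u ∈ Subgroup.center ↥(Cfsg.GU n K q) := by
  rw [Subgroup.mem_center_iff]
  intro g
  exact (SG_comm hK u g).symm

theorem exists_SG (hK : Fintype.card K = q ^ 2) (hn : 1 ≤ n) {z : ↥(Cfsg.GU n K q)}
    (hz : z ∈ Subgroup.center ↥(Cfsg.GU n K q)) : ∃ u, SG hK n u = z := by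
  have h1 := Cfsg.Agent.S0783.center_scalar hK z hz ⟨0, by omega⟩
  set c := ((z : GL (Fin n) K) : Matrix (Fin n) (Fin n) K) ⟨0, by omega⟩ ⟨0, by omega⟩ with hc
  have h2 := (mem_GU_iff_dag hK z.1).mp z.2
  have h3 : ((z : GL (Fin n) K) : Matrix (Fin n) (Fin n) K) = Matrix.scalar (Fin n) c := h1
  rw [h3, dag_scalar, ← map_mul] at h2
  have h4 : c ^ q * c = 1 := by
    have := congrFun (congrFun h2 ⟨0, by omega⟩) ⟨0, by omega⟩
    simpa using this
  have hc0 : c ≠ 0 := by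
    intro h
    rw [h] at h4
    simp at h4
  refine ⟨⟨Units.mk0 c hc0, ?_⟩, ?_⟩
  · show (Units.mk0 c hc0) ^ (q + 1) = 1
    apply Units.ext
    rw [Units.val_pow_eq_pow_val, Units.val_mk0, pow_succ, h4, Units.val_one]
  · apply Subtype.ext
    apply Units.ext
    rw [SG_val, Matrix.GeneralLinearGroup.coe_scalar, h3]
    rfl

theorem SG_inj (hK : Fintype.card K = q ^ 2) (hn : 1 ≤ n) : Function.Injective (SG hK n) := by
  intro u v h
  have h1 : S K n (u : Kˣ) = S K n (v : Kˣ) := congrArg Subtype.val h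
  exact Subtype.ext (S_inj hn h1)

theorem mk_SG_mul (hK : Fintype.card K = q ^ 2) (u : NU K q) (g : ↥(Cfsg.GU n K q)) :
    ((SG hK n u * g : ↥(Cfsg.GU n K q)) : ↥(Cfsg.GU n K q) ⧸ Subgroup.center ↥(Cfsg.GU n K q)) = g := by
  rw [QuotientGroup.mk_mul, (QuotientGroup.eq_one_iff _).mpr (SG_mem hK u), one_mul]

theorem isConj_mk_iff' (hK : Fintype.card K = q ^ 2) (hn : 1 ≤ n) (g g' : ↥(Cfsg.GU n K q)) :
    IsConj (g : ↥(Cfsg.GU n K q) ⧸ Subgroup.center ↥(Cfsg.GU n K q)) g' ↔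
      ∃ (k : ↥(Cfsg.GU n K q)) (u : NU K q), k * g * k⁻¹ = SG hK n u * g' := by
  rw [isConj_iff]
  constructor
  · rintro ⟨c, hc⟩
    induction c using QuotientGroup.induction_on with | _ k => ?_
    have h1 : ((k * g * k⁻¹ : ↥(Cfsg.GU n K q)) :
        ↥(Cfsg.GU n K q) ⧸ Subgroup.center ↥(Cfsg.GU n K q)) = g' := hc
    rw [QuotientGroup.eq_iff_div_mem] at h1
    obtain ⟨u, hu⟩ := exists_SG hK hn h1
    exact ⟨k, u, by rw [hu, div_mul_cancel]⟩
  · rintro ⟨k, u, h⟩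
    refine ⟨(k : ↥(Cfsg.GU n K q) ⧸ Subgroup.center ↥(Cfsg.GU n K q)), ?_⟩
    have h1 : ((k * g * k⁻¹ : ↥(Cfsg.GU n K q)) :
        ↥(Cfsg.GU n K q) ⧸ Subgroup.center ↥(Cfsg.GU n K q)) = g' := by
      rw [h, mk_SG_mul]
    exact h1

theorem orderOf_mk_iff' (r : ℕ) [Fact r.Prime] (g : ↥(Cfsg.GU n K q)) :
    orderOf (g : ↥(Cfsg.GU n K q) ⧸ Subgroup.center ↥(Cfsg.GU n K q)) = r ↔
      g ∉ Subgroup.center ↥(Cfsg.GU n K q) ∧ g ^ r ∈ Subgroup.center ↥(Cfsg.GU n K q) := by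
  rw [orderOf_eq_prime_iff, ← QuotientGroup.mk_pow, QuotientGroup.eq_one_iff, ne_eq,
    QuotientGroup.eq_one_iff, and_comm]

theorem pow_rel' (hK : Fintype.card K = q ^ 2) (hn : 1 ≤ n) (r : ℕ) (k g g' : ↥(Cfsg.GU n K q))
    (u v v' : NU K q) (h : k * g * k⁻¹ = SG hK n u * g') (hg : g ^ r = SG hK n v)
    (hg' : g' ^ r = SG hK n v') : v = u ^ r * v' := by
  apply Subtype.ext
  exact pow_rel hn r k.1 g.1 g'.1 u.1 v.1 v'.1 (congrArg Subtype.val h) (congrArg Subtype.val hg)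
    (congrArg Subtype.val hg')

theorem sq_sub_one (hq : 1 ≤ q) : q ^ 2 - 1 = (q - 1) * (q + 1) := by
  obtain ⟨s, rfl⟩ : ∃ s, q = s + 1 := ⟨q - 1, by omega⟩
  simp only [Nat.add_sub_cancel]
  have : (s + 1) ^ 2 = s * (s + 1 + 1) + 1 := by ring
  rw [this, Nat.add_sub_cancel]

theorem dvd_card_sub_one (hK : Fintype.card K = q ^ 2) (r : ℕ) (hrq : r ∣ q + 1) :
    r ∣ Fintype.card K - 1 := by
  have h2 := two_le_q hK
  rw [hK, sq_sub_one (by omega)]
  exact Dvd.dvd.mul_left hrq _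

theorem coprime_order' (hK : Fintype.card K = q ^ 2) (p : ℕ) [Fact p.Prime] [CharP K p] (r : ℕ)
    [Fact r.Prime] (hrq : r ∣ q + 1) (g : ↥(Cfsg.GU n K q)) (v : NU K q) (hg : g ^ r = SG hK n v) :
    (orderOf g.1).Coprime p :=
  coprime_order p r (dvd_card_sub_one hK r hrq) g.1 v.1 (congrArg Subtype.val hg)

theorem conj_G (hK : Fintype.card K = q ^ 2) (p : ℕ) [Fact p.Prime] [CharP K p]
    (g g' : ↥(Cfsg.GU n K q)) (h1 : (orderOf g.1).Coprime p) (h2 : (orderOf g'.1).Coprime p)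
    (hc : g.1.1.charpoly = g'.1.1.charpoly) : ∃ k : ↥(Cfsg.GU n K q), k * g * k⁻¹ = g' := by
  obtain ⟨x, hx⟩ := SemiConj.conj_GL p g.1 g'.1 h1 h2 hc
  obtain ⟨z, hz, hz2⟩ := conj_GU hK g.1 g'.1 x g.2 g'.2 hx
  exact ⟨⟨z, hz⟩, Subtype.ext hz2⟩

/-- the group of `r`-th powers of norm-one units. -/
abbrev RN (K : Type*) [Field K] (q r : ℕ) : Subgroup (NU K q) :=
  (powMonoidHom r : NU K q →* NU K q).range

theorem not_pow_of_not_mem' (hK : Fintype.card K = q ^ 2) (r : ℕ) [Fact r.Prime] (hr2 : r ≠ 2)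
    (hrq : r ∣ q + 1) (v : NU K q) (hv : v ∉ RN K q r) : ∀ b : K, b ^ r ≠ ((v : Kˣ) : K) := by
  classical
  intro b hb
  have hr : r.Prime := Fact.out
  have hq2 := two_le_q hK
  have hb0 : b ≠ 0 := by
    rintro rfl
    rw [zero_pow hr.ne_zero] at hb
    exact (v : Kˣ).ne_zero hb.symm
  set bu := Units.mk0 b hb0 with hbu0
  have hbu : bu ^ r = (v : Kˣ) := Units.ext hb
  have h1 : (bu ^ (q + 1)) ^ r = 1 := by
    rw [← pow_mul, mul_comm, pow_mul, hbu]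
    exact v.2
  have h2 : (bu ^ (q + 1)) ^ (q - 1) = 1 := by
    rw [← pow_mul, mul_comm, ← sq_sub_one (by omega), ← hK, ← Fintype.card_units, pow_card_eq_one]
  have hcop : Nat.Coprime r (q - 1) := by
    rw [Nat.Prime.coprime_iff_not_dvd hr]
    intro h
    have h3 := Nat.dvd_sub hrq h
    have h4 : q + 1 - (q - 1) = 2 := by omega
    rw [h4] at h3
    exact hr2 ((Nat.prime_dvd_prime_iff_eq hr Nat.prime_two).mp h3)
  have h3 : bu ^ (q + 1) = 1 := by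
    have := pow_gcd_eq_one.mpr ⟨h1, h2⟩
    rwa [hcop, pow_one] at this
  exact hv ⟨⟨bu, h3⟩, Subtype.ext hbu⟩

theorem card_LB' (hK : Fintype.card K = q ^ 2) (r : ℕ) [Fact r.Prime] (hrq : r ∣ q + 1) :
    Nat.card {x : NU K q ⧸ RN K q r // x ≠ 1 ∧ r ∣ n} = (r - 1) * (if r ∣ n then 1 else 0) := by
  classical
  split_ifs with hd
  · rw [mul_one]
    have e : {x : NU K q ⧸ RN K q r // x ≠ 1 ∧ r ∣ n} ≃ {x : NU K q ⧸ RN K q r // x ≠ 1} :=
      Equiv.subtypeEquivRight (fun x => by simp [hd])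
    rw [Nat.card_congr e, card_ne]
    have : Nat.card (NU K q ⧸ RN K q r) = r := by
      have h := IsCyclic.index_powMonoidHom_range (G := NU K q) r
      rw [Cfsg.Agent.S0783.card_N hK, Nat.gcd_eq_right hrq] at h
      exact h
    rw [this]
  · rw [mul_zero, Nat.card_eq_zero]
    left
    exact ⟨fun x => hd x.2.2⟩

end Cfsg.Agent.Lib.Helper65.PU
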