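import Cfsg.Agent.Lib.Helper65.PU.Ex

/-! S2672: the class count. -/

set_option autoImplicit false
set_option maxHeartbeats 1000000

namespace Cfsg.Agent.Lib.Helper65.PU

open Polynomial Cfsg.Agent.Lib.Helper65.PR Cfsg.Agent.Lib.Helper50 Cfsg.Agent.Lib.Helper50.GUConj
  Cfsg.Agent.Lib.Helper50.Herm Cfsg.Agent.Lib.Helper50.CC

variable {K : Type*} [Field K] [Fintype K] {q n : ℕ}
set_option linter.unusedSectionVars false
set_option linter.style.haveILetI false

theorem SG_mul_val (hK : Fintype.card K = q ^ 2) (u : NU K q) (g : ↥(Cfsg.GU n K q)) :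
    (SG hK n u * g : ↥(Cfsg.GU n K q)).1.1 = ((u : Kˣ) : K) • g.1.1 :=
  S_mul_val (u : Kˣ) g.1

theorem SG_charpoly (hK : Fintype.card K = q ^ 2) (u : NU K q) :
    (SG hK n u : ↥(Cfsg.GU n K q)).1.1.charpoly = (X - C ((u : Kˣ) : K)) ^ n :=
  S_charpoly (u : Kˣ)

theorem conj_charpoly' (k g : ↥(Cfsg.GU n K q)) :
    (k * g * k⁻¹ : ↥(Cfsg.GU n K q)).1.1.charpoly = g.1.1.charpoly :=
  conj_charpoly k.1 g.1

theorem SG_matval (hK : Fintype.card K = q ^ 2) (u : NU K q) :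
    (SG hK n u : ↥(Cfsg.GU n K q)).1.1 = ((u : Kˣ) : K) • 1 :=
  S_val (u : Kˣ)

theorem pow_matval (g : ↥(Cfsg.GU n K q)) (r : ℕ) : (g ^ r : ↥(Cfsg.GU n K q)).1.1 = g.1.1 ^ r := by
  rw [← Units.val_pow_eq_pow_val]
  rfl

theorem main (hK : Fintype.card K = q ^ 2) (hn : 2 ≤ n) (r : ℕ) [Fact r.Prime] (hr2 : r ≠ 2)
    (hrq : r ∣ q + 1) :
    Nat.card {C : ConjClasses (↥(Cfsg.GU n K q) ⧸ Subgroup.center ↥(Cfsg.GU n K q)) //
      ∃ g : ↥(Cfsg.GU n K q) ⧸ Subgroup.center ↥(Cfsg.GU n K q),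
        ConjClasses.mk g = C ∧ orderOf g = r} =
    Nat.card (AddAction.orbitRel.Quotient (ZMod r) (XV r n)) +
      (r - 1) * (if r ∣ n then 1 else 0) := by
  classical
  have hr : r.Prime := Fact.out
  have hn1 : 1 ≤ n := by omega
  obtain ⟨p, hchar⟩ := CharP.exists K
  haveI : Fact p.Prime := ⟨CharP.char_is_prime K p⟩
  obtain ⟨ζn, hζn⟩ := exists_prime_orderOf_dvd_card' r (G := NU K q)
    (by rw [Cfsg.Agent.S0783.card_N hK]; exact hrq)
  have hζu : orderOf (ζn : Kˣ) = r := by rw [Subgroup.orderOf_coe]; exact hζn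
  have hζ : IsPrimitiveRoot (((ζn : Kˣ) : K)) r := by
    rw [IsPrimitiveRoot.coe_units_iff, ← hζu]
    exact IsPrimitiveRoot.orderOf _
  set ζ : K := ((ζn : Kˣ) : K) with hζdef
  have hζ1 : ζ ^ (q + 1) = 1 := NU_pow ζn
  have hζpow : ∀ m : ℕ, (((ζn ^ m : NU K q) : Kˣ) : K) = ζ ^ m := by
    intro m
    simp [hζdef]
  rw [← card_LB' (K := K) (n := n) hK r hrq, ← Nat.card_sum]
  choose gA hA1 hA2 hA3 using fun a : XV r n => exists_pa' hK p r hn1 hζ hζ1 a.1 a.2.1
  choose gB hB1' hB2 hB3 using fun x : {x : NU K q ⧸ RN K q r // x ≠ 1 ∧ r ∣ n} =>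
    exists_typeB' hK p r hn1 (Quotient.out x.1 : NU K q) (n / r)
      (Nat.mul_div_cancel' x.2.2).symm
  have hA1' : ∀ a, gA a ^ r = SG hK n 1 := fun a => by rw [hA1, map_one]
  have hout : ∀ x : {x : NU K q ⧸ RN K q r // x ≠ 1 ∧ r ∣ n},
      (Quotient.out x.1 : NU K q) ∉ RN K q r := by
    intro x hx
    apply x.2.1
    rw [← QuotientGroup.out_eq' x.1]
    exact (QuotientGroup.eq_one_iff _).mpr hx
  let φ : (AddAction.orbitRel.Quotient (ZMod r) (XV r n)) ⊕
      {x : NU K q ⧸ RN K q r // x ≠ 1 ∧ r ∣ n} →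
      ↥(Cfsg.GU n K q) ⧸ Subgroup.center ↥(Cfsg.GU n K q) :=
    Sum.elim (fun o => ((gA (Quotient.out o) : ↥(Cfsg.GU n K q)) : ↥(Cfsg.GU n K q) ⧸ _))
      (fun x => ((gB x : ↥(Cfsg.GU n K q)) : ↥(Cfsg.GU n K q) ⧸ _))
  refine Cfsg.Agent.Lib.Helper65.GR.card_classes_label (fun g => orderOf g = r) φ ?_ ?_ ?_
  · -- orders
    rintro (o | x)
    · show orderOf ((gA (Quotient.out o) : ↥(Cfsg.GU n K q)) :
        ↥(Cfsg.GU n K q) ⧸ Subgroup.center ↥(Cfsg.GU n K q)) = r
      rw [orderOf_mk_iff']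
      refine ⟨?_, by rw [hA1]; exact Subgroup.one_mem _⟩
      intro hz
      obtain ⟨u, hu⟩ := exists_SG hK hn1 hz
      have h1 : u ^ r = 1 := by
        apply SG_inj hK hn1
        rw [map_pow, hu, hA1, map_one]
      have h2 : ((u : Kˣ) : K) ^ r = 1 := by
        have := congrArg (fun w : NU K q => ((w : Kˣ) : K)) h1
        simpa using this
      obtain ⟨j, hj⟩ := exists_zeta_pow hζ _ h2
      have h3 := hA3 (Quotient.out o)
      rw [← hu, SG_charpoly, hj, ← pa_single] at h3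
      have h4 := pa_injective hζ _ _ h3
      have h5 := (Quotient.out o).2.2 j
      rw [← h4, Pi.single_eq_same] at h5
      exact lt_irrefl _ h5
    · show orderOf ((gB x : ↥(Cfsg.GU n K q)) :
        ↥(Cfsg.GU n K q) ⧸ Subgroup.center ↥(Cfsg.GU n K q)) = r
      rw [orderOf_mk_iff']
      refine ⟨?_, by rw [hB1']; exact SG_mem hK _⟩
      intro hz
      obtain ⟨u, hu⟩ := exists_SG hK hn1 hz
      apply hout x
      refine ⟨u, ?_⟩
      apply SG_inj hK hn1
      rw [← hB1', ← hu]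
      simp
  · -- distinct labels are not conjugate
    rintro (o | x) (o' | x') h
    · have h' : IsConj ((gA (Quotient.out o) : ↥(Cfsg.GU n K q)) :
          ↥(Cfsg.GU n K q) ⧸ Subgroup.center ↥(Cfsg.GU n K q)) (gA (Quotient.out o')) := h
      rw [isConj_mk_iff' hK hn1] at h'
      obtain ⟨k, u, hk⟩ := h'
      have h1 := pow_rel' hK hn1 r k _ _ u 1 1 hk (hA1' _) (hA1' _)
      have h2 : ((u : Kˣ) : K) ^ r = 1 := by
        rw [mul_one] at h1
        have := congrArg (fun w : NU K q => ((w : Kˣ) : K)) h1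
        simpa using this.symm
      obtain ⟨κ, hκ⟩ := exists_zeta_pow hζ _ h2
      have h3 := conj_charpoly' k (gA (Quotient.out o))
      rw [hk, SG_mul_val, hκ, charpoly_zeta_smul r hζ κ _ (Quotient.out o').2.1 _ (hA3 _), hA3] at h3
      have h4 := pa_injective hζ _ _ h3
      have h5 : κ +ᵥ (Quotient.out o') = Quotient.out o := Subtype.ext h4
      congr 1
      rw [← Quotient.out_eq o, ← Quotient.out_eq o']
      apply Quotient.sound
      show AddAction.orbitRel (ZMod r) (XV r n) _ _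
      rw [AddAction.orbitRel_apply]
      exact ⟨κ, h5⟩
    · exfalso
      have h' : IsConj ((gA (Quotient.out o) : ↥(Cfsg.GU n K q)) :
          ↥(Cfsg.GU n K q) ⧸ Subgroup.center ↥(Cfsg.GU n K q)) (gB x') := h
      rw [isConj_mk_iff' hK hn1] at h'
      obtain ⟨k, u, hk⟩ := h'
      have h1 := pow_rel' hK hn1 r k _ _ u 1 _ hk (hA1' _) (hB1' _)
      apply hout x'
      refine ⟨u⁻¹, ?_⟩
      show u⁻¹ ^ r = _
      rw [inv_pow, inv_eq_iff_mul_eq_one]
      exact h1.symm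
    · exfalso
      have h' : IsConj ((gB x : ↥(Cfsg.GU n K q)) :
          ↥(Cfsg.GU n K q) ⧸ Subgroup.center ↥(Cfsg.GU n K q)) (gA (Quotient.out o')) := h
      rw [isConj_mk_iff' hK hn1] at h'
      obtain ⟨k, u, hk⟩ := h'
      have h1 := pow_rel' hK hn1 r k _ _ u _ 1 hk (hB1' _) (hA1' _)
      apply hout x
      refine ⟨u, ?_⟩
      show u ^ r = _
      rw [h1, mul_one]
    · have h' : IsConj ((gB x : ↥(Cfsg.GU n K q)) :
          ↥(Cfsg.GU n K q) ⧸ Subgroup.center ↥(Cfsg.GU n K q)) (gB x') := h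
      rw [isConj_mk_iff' hK hn1] at h'
      obtain ⟨k, u, hk⟩ := h'
      have h1 := pow_rel' hK hn1 r k _ _ u _ _ hk (hB1' _) (hB1' _)
      congr 1
      apply Subtype.ext
      rw [← QuotientGroup.out_eq' x.1, ← QuotientGroup.out_eq' x'.1, QuotientGroup.eq]
      refine ⟨u⁻¹, ?_⟩
      show u⁻¹ ^ r = _
      rw [h1, mul_inv, mul_assoc, inv_mul_cancel, mul_one, inv_pow]
  · -- every element of order r is conjugate to a representative
    intro x hx
    induction x using QuotientGroup.induction_on with | _ g => ?_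
    have hx' : orderOf (g : ↥(Cfsg.GU n K q) ⧸ Subgroup.center ↥(Cfsg.GU n K q)) = r := hx
    rw [orderOf_mk_iff'] at hx'
    obtain ⟨hgZ, hgr⟩ := hx'
    obtain ⟨v, hv⟩ := exists_SG hK hn1 hgr
    by_cases hvR : v ∈ RN K q r
    · obtain ⟨w, hw⟩ := hvR
      have hw' : w ^ r = v := hw
      set g' := SG hK n w⁻¹ * g with hg'
      have hc : Commute (SG hK n w⁻¹) g := SG_comm hK _ g
      have hg'r : g' ^ r = 1 := by
        rw [hg', hc.mul_pow, ← hv, ← map_pow, ← map_mul, inv_pow, hw', inv_mul_cancel, map_one]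
      have hg'Z : g' ∉ Subgroup.center ↥(Cfsg.GU n K q) := by
        intro h
        apply hgZ
        have : g = SG hK n w * g' := by
          rw [hg', ← mul_assoc, ← map_mul, mul_inv_cancel, map_one, one_mul]
        rw [this]
        exact Subgroup.mul_mem _ (SG_mem hK _) h
      obtain ⟨a, ha, hca⟩ := charpoly_eq_pa r hζ g'.1.1
        (by rw [← pow_matval, hg'r]; rfl)
      have hlt : ∀ j, a j < n := by
        intro j
        by_contra hj
        push Not at hj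
        have h1 := single_of_le r a ha j hj
        rw [h1, pa_single] at hca
        have h2 : (SG hK n (ζn ^ j.val) : ↥(Cfsg.GU n K q)).1.1.charpoly =
            (X - C (ζ ^ j.val)) ^ n := by
          rw [SG_charpoly, hζpow]
        obtain ⟨k, hk⟩ := conj_G hK p g' (SG hK n (ζn ^ j.val))
          (coprime_order' hK p r hrq g' 1 (by rw [hg'r, map_one]))
          (coprime_order' hK p r hrq _ ((ζn ^ j.val) ^ r) (map_pow _ _ _).symm) (by rw [hca, h2])
        apply hg'Z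
        have h3 : g' = k⁻¹ * SG hK n (ζn ^ j.val) * k := by rw [← hk]; group
        rw [h3, ← (SG_comm hK _ k⁻¹).eq, mul_assoc, inv_mul_cancel, mul_one]
        exact SG_mem hK _
      let A : XV r n := ⟨a, ha, hlt⟩
      let o : AddAction.orbitRel.Quotient (ZMod r) (XV r n) := Quotient.mk _ A
      have ho : AddAction.orbitRel (ZMod r) (XV r n) (Quotient.out o) A := Quotient.mk_out A
      rw [AddAction.orbitRel_apply] at ho
      obtain ⟨κ, hκ⟩ := ho
      have hκ' : κ +ᵥ A = Quotient.out o := hκ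
      refine ⟨Sum.inl o, ?_⟩
      show IsConj (g : ↥(Cfsg.GU n K q) ⧸ Subgroup.center ↥(Cfsg.GU n K q)) (gA (Quotient.out o))
      have h1 : (SG hK n (ζn ^ κ.val) * g' : ↥(Cfsg.GU n K q)).1.1.charpoly =
          (gA (Quotient.out o)).1.1.charpoly := by
        rw [SG_mul_val, hA3, ← hκ', hζpow, charpoly_zeta_smul r hζ κ a ha _ hca]
        rfl
      have hc2 : Commute (SG hK n (ζn ^ κ.val)) g' := SG_comm hK _ g'
      obtain ⟨k, hk⟩ := conj_G hK p (SG hK n (ζn ^ κ.val) * g') (gA (Quotient.out o))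
        (coprime_order' hK p r hrq _ ((ζn ^ κ.val) ^ r) (by
          rw [hc2.mul_pow, hg'r, mul_one]; exact (map_pow _ _ _).symm))
        (hA2 _) h1
      have h2 : (g : ↥(Cfsg.GU n K q) ⧸ Subgroup.center ↥(Cfsg.GU n K q)) =
          ((SG hK n (ζn ^ κ.val) * g' : ↥(Cfsg.GU n K q)) : ↥(Cfsg.GU n K q) ⧸ _) := by
        rw [mk_SG_mul, hg', mk_SG_mul]
      rw [h2, isConj_mk_iff' hK hn1]
      exact ⟨k, 1, by rw [hk, map_one, one_mul]⟩
    · have hpow := not_pow_of_not_mem' hK r hr2 hrq v hvR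
      obtain ⟨k0, hk0, -⟩ := charpoly_typeB r ((v : Kˣ) : K) hpow g.1.1
        (by rw [← pow_matval, ← hv, SG_matval])
      have hdvd : r ∣ n := ⟨k0, hk0⟩
      have hne : ((v : NU K q) : NU K q ⧸ RN K q r) ≠ 1 := by
        rw [ne_eq, QuotientGroup.eq_one_iff]; exact hvR
      let x : {x : NU K q ⧸ RN K q r // x ≠ 1 ∧ r ∣ n} := ⟨(v : NU K q ⧸ RN K q r), hne, hdvd⟩
      obtain ⟨⟨h, w, hw⟩, hh⟩ := QuotientGroup.mk_out_eq_mul (RN K q r) v
      have hw' : w ^ r = h := hw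
      have hh' : (Quotient.out x.1 : NU K q) = v * w ^ r := by rw [hw']; exact hh
      set g' := SG hK n w * g with hg'
      have hc : Commute (SG hK n w) g := SG_comm hK _ g
      have hg'r : g' ^ r = SG hK n (Quotient.out x.1) := by
        rw [hg', hc.mul_pow, ← hv, ← map_pow, ← map_mul, hh', mul_comm]
      refine ⟨Sum.inr x, ?_⟩
      show IsConj (g : ↥(Cfsg.GU n K q) ⧸ Subgroup.center ↥(Cfsg.GU n K q)) (gB x)
      obtain ⟨k1, hk1, hcp⟩ := charpoly_typeB r (((Quotient.out x.1 : NU K q) : Kˣ) : K)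
        (not_pow_of_not_mem' hK r hr2 hrq _ (hout x)) g'.1.1
        (by rw [← pow_matval, hg'r, SG_matval])
      have hk1' : k1 = n / r := by
        rw [hk1, Nat.mul_div_cancel_left _ hr.pos]
      obtain ⟨k, hk⟩ := conj_G hK p g' (gB x)
        (coprime_order' hK p r hrq _ _ hg'r) (hB2 _) (by rw [hcp, hB3, hk1'])
      have h2 : (g : ↥(Cfsg.GU n K q) ⧸ Subgroup.center ↥(Cfsg.GU n K q)) =
          ((g' : ↥(Cfsg.GU n K q)) : ↥(Cfsg.GU n K q) ⧸ _) := by
        rw [hg', mk_SG_mul]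
      rw [h2, isConj_mk_iff' hK hn1]
      exact ⟨k, 1, by rw [hk, map_one, one_mul]⟩

end Cfsg.Agent.Lib.Helper65.PU
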